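import Cfsg.Agent.Lib.Helper11.Suz1782.Top

set_option autoImplicit false
set_option maxRecDepth 100000

namespace Cfsg.Agent.Lib.Helper11.Suz1782

set_option maxHeartbeats 0
theorem b0 : allR (guardB 185 (blk fc sc rt.get INV isH)) 7 0 = true := by decide +kernel
theorem b1 : allR (guardB 185 (blk fc sc rt.get INV isH)) 7 128 = true := by decide +kernel
theorem c0 : allR (guardB 56 (cblk fc nc cc 47360 1782 139984046386112763159840142535527767382602843577165595931249318810236991948760059086304843329475444736 gens)) 6 0 = true := by decide +kernel

end Cfsg.Agent.Lib.Helper11.Suz1782
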